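import Mathlib
import Cfsg.Prelude.Def_Transfer
import Cfsg.Prelude.Def_Local
import Cfsg.Prelude.Def_TwoFusion
import Cfsg.Agent.Lib.Helper24.J2Ord.Defs
import Cfsg.Agent.Lib.Helper90.Extraspecial
import Cfsg.Agent.Lib.Helper29.FStar
import Cfsg.Agent.Lib.Lead.Cores
import Cfsg.Agent.S1265
import Cfsg.Agent.Lib.Helper86.J2Ord.A5

/-! S3313 farm, piece C: the hypotheses of S3313 give a `Cfg`. -/

set_option autoImplicit false

namespace Cfsg.Agent.Lib.Helper86.J2Ord

open Cfsg.Agent.Lib.Helper24.J2Ord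

section transport

variable {H : Type*} [Group H] (K' : Subgroup H) (e : ↥K' ≃* alternatingGroup (Fin 5))

include e in
theorem transport_K15 : Nat.card {k : H // k ∈ K' ∧ k * k = 1 ∧ k ≠ 1} = 15 := by
  rw [← a5_15]
  symm
  have tr1 : ∀ a : alternatingGroup (Fin 5), a * a = 1 ↔ ((e.symm a : K') : H) * (e.symm a : K') = 1 := by
    intro a
    rw [← Subgroup.coe_mul, ← map_mul, OneMemClass.coe_eq_one, MulEquiv.map_eq_one_iff]
  have tr2 : ∀ a : alternatingGroup (Fin 5), a = 1 ↔ ((e.symm a : K') : H) = 1 := by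
    intro a
    rw [OneMemClass.coe_eq_one, MulEquiv.map_eq_one_iff]
  refine Nat.card_eq_of_bijective
    (fun a => ⟨((e.symm a.1 : K') : H), (e.symm a.1).2, (tr1 _).1 a.2.1,
      fun h => a.2.2 ((tr2 _).2 h)⟩) ⟨?_, ?_⟩
  · rintro ⟨a, ha⟩ ⟨b, hb⟩ h
    have h' := congrArg Subtype.val h
    have : a = b := e.symm.injective (Subtype.ext h')
    subst this
    rfl
  · rintro ⟨k, hk, h1, h2⟩
    have ea : ((e.symm (e ⟨k, hk⟩) : K') : H) = k := by rw [MulEquiv.symm_apply_apply]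
    refine ⟨⟨e ⟨k, hk⟩, ?_, ?_⟩, ?_⟩
    · rw [tr1, ea]; exact h1
    · intro h; rw [tr2, ea] at h; exact h2 h
    · exact Subtype.ext ea

include e in
theorem transport_K5 : ∀ k ∈ K', k * k = 1 → k ≠ 1 →
    ∃ k' ∈ K', k' * k' = 1 ∧ k' ≠ 1 ∧ orderOf (k * k') = 5 := by
  intro k hk h1 h2
  obtain ⟨b, hb1, hb2, hb3⟩ := a5_5 (e ⟨k, hk⟩)
    (by rw [← map_mul, MulEquiv.map_eq_one_iff]; exact Subtype.ext h1)
    (by intro h; rw [MulEquiv.map_eq_one_iff] at h; exact h2 (congrArg Subtype.val h))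
  refine ⟨(e.symm b : K'), (e.symm b).2, ?_, ?_, ?_⟩
  · rw [← Subgroup.coe_mul, ← map_mul, hb1, map_one]; rfl
  · intro h
    rw [OneMemClass.coe_eq_one, MulEquiv.map_eq_one_iff] at h
    exact hb2 h
  · have : k * ((e.symm b : K') : H) = ((e.symm (e ⟨k, hk⟩ * b) : K') : H) := by
      rw [map_mul, MulEquiv.symm_apply_apply]; rfl
    rw [this, Subgroup.orderOf_coe, MulEquiv.orderOf_eq, hb3]

end transport

variable {G : Type*} [Group G] [Finite G]

/-- [C] the hypotheses of S3313 give a `Cfg`. -/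
theorem cfg_of_hyp (z : G) (hz : orderOf z = 2)
    (hex : Cfsg.IsExtraspecial 2 ↥(Cfsg.generalizedFittingSubgroup ↥(Subgroup.centralizer ({z} : Set G))))
    (hQ : Nat.card ↥(Cfsg.pCore 2 ↥(Subgroup.centralizer ({z} : Set G))) = 32)
    (K : Subgroup G) (hK : Nonempty (↥K ≃* alternatingGroup (Fin 5)))
    (hKC : K ⊔ (Cfsg.pCore 2 ↥(Subgroup.centralizer ({z} : Set G))).map (Subgroup.centralizer ({z} : Set G)).subtype = Subgroup.centralizer ({z} : Set G))
    (hKQ : K ⊓ (Cfsg.pCore 2 ↥(Subgroup.centralizer ({z} : Set G))).map (Subgroup.centralizer ({z} : Set G)).subtype = ⊥) :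
    Cfg ↥(Subgroup.centralizer ({z} : Set G)) (Cfsg.pCore 2 ↥(Subgroup.centralizer ({z} : Set G)))
      (K.subgroupOf (Subgroup.centralizer ({z} : Set G)))
      ⟨z, Subgroup.mem_centralizer_singleton_iff.2 rfl⟩ := by
  have : Fact (Nat.Prime 2) := ⟨Nat.prime_two⟩
  obtain ⟨e⟩ := hK
  set C := Subgroup.centralizer ({z} : Set G) with hC
  set z' : C := ⟨z, Subgroup.mem_centralizer_singleton_iff.2 rfl⟩ with hz'
  have hFn := Cfsg.Agent.Lib.Helper29.generalizedFittingSubgroup_normal ↥C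
  have hQn : (Cfsg.pCore 2 ↥C).Normal := Cfsg.Agent.Lib.Lead.pCore_normal' 2 ↥C
  have hFQ : Cfsg.generalizedFittingSubgroup ↥C = Cfsg.pCore 2 ↥C := by
    apply le_antisymm
    · exact Cfsg.Agent.Lib.Lead.le_pCore hFn hex.1.1
    · refine le_trans ?_ (Cfsg.Agent.Lib.Helper29.fittingSubgroup_le_generalizedFittingSubgroup ↥C)
      exact Cfsg.Agent.Lib.Helper29.le_fittingSubgroup hQn
        (Cfsg.Agent.Lib.Lead.pCore_isPGroup 2 ↥C).isNilpotent
  have hzc : ∀ h : C, h * z' = z' * h := by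
    intro h
    apply Subtype.ext
    exact Subgroup.mem_centralizer_singleton_iff.1 h.2
  have hz1 : z' ≠ 1 := by
    intro h
    have : z = 1 := congrArg Subtype.val h
    rw [this, orderOf_one] at hz
    omega
  have hzF : z' ∈ Cfsg.generalizedFittingSubgroup ↥C := by
    apply Cfsg.Agent.Lib.Helper29.fittingSubgroup_le_generalizedFittingSubgroup
    apply Cfsg.Agent.Lib.Helper29.center_le_fittingSubgroup
    rw [Subgroup.mem_center_iff]
    exact hzc
  obtain ⟨z0, hES, -⟩ := Cfsg.Agent.Lib.Helper90.ES.of_isExtraspecial hex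
  have hzz0 : z' = z0 := (hES.center z' hzF (fun q _ => hzc q)).resolve_left hz1
  rw [← hzz0, hFQ] at hES
  have hKle : K ≤ C := by rw [← hKC]; exact le_sup_left
  have htop : Cfsg.pCore 2 ↥C ⊔ K.subgroupOf C = ⊤ := by
    apply Subgroup.map_injective C.subtype_injective
    rw [Subgroup.map_sup, Subgroup.subgroupOf_map_subtype, inf_eq_left.2 hKle, sup_comm, hKC,
      ← MonoidHom.range_eq_map, Subgroup.range_subtype]
  refine ⟨hzc, hES.z_sq, hES.z_ne, hES.z_mem, fun h a ha => hQn.conj_mem a ha h, hQ, hES.sq, ?_, ?_,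
    ?_, ?_, ?_, ?_, ?_⟩
  · intro a ha b hb
    rcases hES.comm a ha b hb with h | h
    · exact Or.inl h
    · right; rw [h, hzc]
  · intro a ha h
    exact hES.center a ha (fun q hq => (h q hq).symm)
  · intro h hh
    rw [← hFQ]
    apply Cfsg.Agent.S1265.result
    rw [Subgroup.mem_centralizer_iff]
    intro a ha
    rw [hFQ] at ha
    exact (hh a ha).symm
  · intro h
    have h1 : h ∈ ((Cfsg.pCore 2 ↥C ⊔ K.subgroupOf C : Subgroup C) : Set C) := by
      rw [htop]; trivial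
    rw [Subgroup.normal_mul] at h1
    obtain ⟨b, hb, k, hk, rfl⟩ := h1
    exact ⟨b, hb, k, hk, rfl⟩
  · intro k hk hkQ
    have : (k : G) ∈ K ⊓ (Cfsg.pCore 2 ↥C).map C.subtype := ⟨hk, ⟨k, hkQ, rfl⟩⟩
    rw [hKQ, Subgroup.mem_bot] at this
    exact Subtype.ext this
  · exact transport_K15 _ ((Subgroup.subgroupOfEquivOfLe hKle).trans e)
  · exact transport_K5 _ ((Subgroup.subgroupOfEquivOfLe hKle).trans e)

end Cfsg.Agent.Lib.Helper86.J2Ord
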